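import Cfsg.Agent.Lib.Helper18.StSteinE7.D0

/-!
# Type E₇: the decompositions of the roots, check, part 1
-/

set_option autoImplicit false

namespace Cfsg.Agent.Lib.Helper18.StAbs

open Cfsg Cfsg.Lie Cfsg.Lie.ChevalleyDatum

set_option maxRecDepth 100000 in
theorem gchk_E7_0 : gChunkF chevE7 gcE7_0 = true := by decide +kernel

end Cfsg.Agent.Lib.Helper18.StAbs
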