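import Cfsg.Agent.Lib.Helper18.StSteinE7.H00
import Cfsg.Agent.Lib.Helper18.StSteinE7.H01
import Cfsg.Agent.Lib.Helper18.StSteinE7.H02
import Cfsg.Agent.Lib.Helper18.StSteinE7.H03
import Cfsg.Agent.Lib.Helper18.StSteinE7.G0
import Cfsg.Agent.Lib.Helper18.StSteinE7.G1
import Cfsg.Agent.Lib.Helper18.StSteinE7.G2
import Cfsg.Agent.Lib.Helper18.StSteinE7.G3
import Cfsg.Agent.Lib.Helper18.StSteinE7.C0
import Cfsg.Agent.Lib.Helper18.StCert.E7x

/-!
# Type E₇: the group presented by (R1), (R2) is centrally closed, over any field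

Assembly of the checks of this folder: every central extension of the group presented by Steinberg's
relators (R1), (R2) of type E₇ over an arbitrary field splits, and homomorphisms from it lift
uniquely through central extensions.
-/

set_option autoImplicit false

namespace Cfsg.Agent.Lib.Helper18.StAbs

open Cfsg Cfsg.Lie Cfsg.Lie.ChevalleyDatum

set_option maxRecDepth 100000 in
theorem cover_gcE7 : gcE7.map Prod.fst = List.range chevE7.nroots := by decide +kernel

set_option maxRecDepth 100000 in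
theorem h1cover_E7 : (h1E7_00 ++ h1E7_01 ++ h1E7_02 ++ h1E7_03).map Prod.fst =
    List.range chevE7.nroots := by decide +kernel

theorem h1_E7 : ∀ α β, ComP chevE7 α β →
    ∃ a b C, SumP chevE7 a b β C ∧ ComP chevE7 α a ∧ ComP chevE7 α b := by
  intro α β h
  obtain ⟨x, hx, rfl⟩ := cover_of_eq' chevE7.nroots _ h1cover_E7 α h.1
  simp only [List.mem_append] at hx
  rcases hx with ((hx | hx) | hx) | hx
  · exact h1_of_chunkF chevE7 _ h1chk_E7_00 x hx β h
  · exact h1_of_chunkF chevE7 _ h1chk_E7_01 x hx β h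
  · exact h1_of_chunkF chevE7 _ h1chk_E7_02 x hx β h
  · exact h1_of_chunkF chevE7 _ h1chk_E7_03 x hx β h

theorem good_E7 : ∀ c ∈ gcE7, gB chevE7 c = true := by
  intro c hc
  unfold gcE7 at hc
  simp only [List.mem_append] at hc
  rcases hc with ((hc | hc) | hc) | hc
  · exact g_of_chunkF chevE7 _ gchk_E7_0 c hc
  · exact g_of_chunkF chevE7 _ gchk_E7_1 c hc
  · exact g_of_chunkF chevE7 _ gchk_E7_2 c hc
  · exact g_of_chunkF chevE7 _ gchk_E7_3 c hc

theorem cov_E7 : ∀ r < chevE7.nroots, covRowB chevE7 gcE7 r = true := by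
  intro r hr
  have hn : chevE7.nroots = 126 := by decide
  rw [hn] at hr
  exact cov_of_chunkF chevE7 gcE7 _ covchk_E7 r (List.mem_range.mpr hr)

open Cfsg.Agent.Lib.Helper17 in
/-- every central extension of the group presented by (R1), (R2) of type E₇ splits -/
theorem cover_section_E7 {K : Type*} [Field K] {E : Type*} [Group E]
    (ψ : E →* chevE7.SteinbergCover K) (hs : Function.Surjective ψ)
    (hc : ψ.ker ≤ Subgroup.center E) :
    ∃ φ : chevE7.SteinbergCover K →* E, ψ.comp φ = MonoidHom.id _ := by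
  classical
  have hD : chevE7 ∈ [chevG2, chevB2, chevD4, chevF4, chevE6, chevE7, chevE8] := by simp
  have hX : Rel chevE7 (XP chevE7 (chevE7.steinbergRelsAB K)) :=
    pres_rel chevE7 _ (fun g hg => hg)
  let θ : chevE7.SteinbergCover K →* ↥(chevE7.group K) :=
    PresentedGroup.toGroup (relsAB_lift (K := K) chevE7 hD)
  let π : chevE7.SteinbergCover K →* GL chevE7.Idx K := (chevE7.group K).subtype.comp θ
  have hπ : ∀ r < chevE7.nroots, ∀ t,
      π (XP chevE7 (chevE7.steinbergRelsAB K) r t) = xU chevE7 hD r t :=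
    fun r _ t => lift_stX (K := K) chevE7 hD r t
  have hinj : ∀ g < chevE7.nroots, ∀ v v' : K, XP chevE7 (chevE7.steinbergRelsAB K) g v =
      XP chevE7 (chevE7.steinbergRelsAB K) g v' → v = v' := by
    intro g hg v v' h
    have h1 := congrArg π h
    rw [hπ g hg, hπ g hg] at h1
    exact xU_inj chevE7 hD g hg v v' h1
  obtain ⟨hb, hr⟩ := stein_hyps chevE7 gcE7 cover_gcE7 good_E7 cov_E7
  obtain ⟨hY, hpsi⟩ := stein_rel ψ hs hc (baseF gcE7) sl_E7 hX hinj h1_E7 hb hr
  have hge : ∀ γ, chevE7.nroots ≤ γ → ∀ t : K,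
      xs chevE7 (XP chevE7 (chevE7.steinbergRelsAB K)) ψ hs (baseF gcE7) γ t = 1 :=
    fun γ hγ t => xs_ge ψ hs (baseF gcE7) γ hγ t
  refine ⟨PresentedGroup.toGroup (relsAB_liftY _ hY hge), ?_⟩
  apply PresentedGroup.ext
  intro p
  rw [MonoidHom.comp_apply, PresentedGroup.toGroup.of, MonoidHom.id_apply,
    hpsi p.1.val p.1.isLt p.2]
  unfold XP ChevalleyDatum.stX
  rw [dif_pos p.1.isLt]
  rfl

/-- over any field, homomorphisms from the group presented by (R1), (R2) of type E₇ lift uniquely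
through central extensions -/
theorem univ_E7 {K : Type*} [Field K] {G₁ E : Type*} [Group G₁] [Group E] (π₁ : E →* G₁)
    (hπ₁ : Function.Surjective π₁) (hc : π₁.ker ≤ Subgroup.center E)
    (σ : chevE7.SteinbergCover K →* G₁) :
    ∃! τ : chevE7.SteinbergCover K →* E, π₁.comp τ = σ := by
  have hne : chevE7 ∈ [chevB2, chevG2] → ∃ x : K, x ≠ 0 ∧ x ≠ 1 := by
    intro h
    exfalso
    simp only [List.mem_cons, List.mem_nil_iff, or_false] at h
    rcases h with h | h
    · have h1 := congrArg ChevalleyDatum.nroots h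
      exact absurd h1 (by decide)
    · have h1 := congrArg ChevalleyDatum.nroots h
      exact absurd h1 (by decide)
  have hperf : commutator (chevE7.SteinbergCover K) = ⊤ :=
    StCov.cover_perfect chevE7 (by simp) hne
  obtain ⟨τ, hτ⟩ := CExt.lift_of_section
    (fun P ψ hs hc' => cover_section_E7 ψ hs hc') π₁ hπ₁ hc σ
  exact ⟨τ, hτ, fun τ' hτ' => CExt.lift_unique hperf π₁ hc τ' τ (by rw [hτ', hτ])⟩

end Cfsg.Agent.Lib.Helper18.StAbs
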